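import Cfsg.Agent.Mult.Slices
import Cfsg.Agent.Co3C.Cert

set_option autoImplicit false
set_option Elab.async false
set_option maxRecDepth 100000
set_option linter.all false

namespace Cfsg.Agent.Co3C
open Cfsg.Agent.CGT

open Cfsg.Agent.Mult

noncomputable def u3_D : PC := ⟨3, 7, 2, 22,
  [[0, 0x104, 0x10, 0x440, 0x1100, 0x1400, 0x1000], [0, 0, 0x610, 0x2440, 0x100, 0x400, 0x1000], [0, 0, 0, 0x1540, 0x100, 0x2400, 0x1000], [0, 0, 0, 0x2000, 0x2100, 0x1400, 0x1000], [0, 0, 0, 0, 0, 0x400, 0x1000], [0, 0, 0, 0, 0, 0, 0x1000], [0, 0, 0, 0, 0, 0, 0]],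
  [0x3f3, 0xf, 0x33, 0xf, 0, 0, 0],
  [(7, 1, 0xa02), (7, 4, 0x2861), (7, 0x10, 0x2411), (7, 0x40, 0x2216), (7, 0x100, 0x2800), (7, 0x400, 0x2200), (7, 0x1000, 0x1000), (8, 1, 0x2a10), (8, 4, 0x92), (8, 0x10, 0x2121), (8, 0x40, 0x1815), (8, 0x100, 0x2a00), (8, 0x400, 0x900), (8, 0x1000, 0x1000)], 19, 0x40401050302000500030102060000060000⟩
noncomputable def u3_ds : List (List ℕ) := [[12, 3, 12, 3, 4, 6, 8, 4, 6, 12, 4, 6, 8, 2, 4, 6, 0, 2, 2, 3, 12], [3, 6, 4, 6, 2, 0, 4, 6, 2, 6, 4, 6, 12, 3, 0, 12, 10, 0, 12, 2, 12, 4, 6, 10, 2, 2], [12, 10, 0, 4, 2, 6, 0, 2, 12, 6, 4, 8, 6, 4, 2, 12, 2, 8, 12, 6, 3, 10, 3], [4, 2, 4, 3, 4, 3, 3, 12, 6, 0, 6, 12, 8, 3, 10, 8, 0, 3], [3, 3, 3, 4, 10, 0, 12, 8, 0, 4, 6, 8, 4, 0, 6, 2, 12, 3, 3, 12, 4], [12, 2, 4, 12, 2, 6, 0, 8, 6, 4, 6,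 2, 6, 2, 2, 6, 4, 12], [0, 12, 6, 2, 4, 6, 3, 6, 3, 4, 0, 6, 4, 6, 4, 8, 6, 10, 12, 6, 0], [8, 2, 10, 2, 6, 12, 10, 3, 8, 6, 10, 6, 3, 6, 4, 0, 2, 6, 3, 6, 3, 4], [10, 2, 2, 8, 3, 12, 0, 10, 6, 3, 0, 8, 2, 6, 3, 0, 2, 6, 0, 2, 4, 12, 3, 3, 4]]
noncomputable def u3_c : Mult.Cert := ⟨113, 20, [[], [], [], [], [1], [3], [4]],
  [],
  [[0x176a5a079cb0f, 0, 0x823d53d92c89, 0, 0, 0x212fb866e524b, 0x17d7a4f116946], [0, 0x1ad85d55e2525, 0xb27cdd75fba8, 0x1b8067636fc03, 0xf8f432d93e1, 0x20dc98c3e1aea, 0x2e3c7c31fe34], [0, 0, 0x2167ebe3de81b, 0x1d0e2bbb5fe86, 0x115919e3b43ce, 0x1603ad185f2d1, 0x7cd68286fb26], [0, 0, 0, 0x43af47f4739d, 0x1ae0ea8513c7e, 0x1101ddcccab0d, 0x176838794f172], [0, 0, 0, 0, 0x83843971c2, 0x3da5faed52f, 0x14ce6b167f31], [0, 0, 0, 0, 0, 0xbb68bb8fa3e9, 0xddef20eff76],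 [0, 0, 0, 0, 0, 0, 0x2bd6bdd096]]⟩

end Cfsg.Agent.Co3C
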