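import Cfsg.Agent.Mult.Slices
import Cfsg.Agent.Co3C.Mul3D

set_option autoImplicit false
set_option Elab.async false
set_option maxRecDepth 100000
set_option linter.all false

namespace Cfsg.Agent.Co3C
open Cfsg.Agent.CGT

open Cfsg.Agent.Mult

set_option Elab.async false
theorem u3_all : allB u3_D u3_c [.assoc 0x40 0x80 0x40, .assoc 0x100 0x10 1, .assoc 0x400 0x100 0x10, .assoc 0x1000 0x40 1, .assoc 0x100 4 1, .assoc 0x400 4 1, .assoc 8 4 1, .assoc 0x200 0x100 1, .assoc 0x400 0x40 1, .assoc 0x40 2 1, .assoc 0x10 4 1, .assoc 0x40 0x10 1, .assoc 0x40 4 1, .assoc 0x40 0x10 4, .fus 7 [4, 2] [2, 4], .fus 7 [5, 2] [2, 5, 6, 6], .fus 7 [5, 1] [1, 5], .fus 7 [2, 2, 2] [], .fus 7 [2, 0] [0, 2], .fus 7 [2, 1] [1, 2, 4, 4, 5], .fus 7 [3, 2] [2, 3, 4, 5, 6], .fus 7 [3, 0] [0, 3, 5], .fus 7 [3, 1] [1, 3, 5, 6, 6], .fus 7 [3, 3, 3] [6, 6], .fus 8 [12, 7] [7,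 12, 13], .fus 8 [9, 9, 9] [], .fus 8 [12, 10] [10, 12, 13], .fus 8 [10, 7] [7, 10, 12], .fus 8 [10, 9] [9, 10, 11, 12, 13], .fus 8 [8, 7] [7, 8, 11], .fus 8 [8, 8, 8] []] 9 m_ts u3_ds [5, 4, 3, 2, 1, 0, 7] [(129, [4]), (130, [0x40]), (0, [0x1000, 0x400, 0x100]), (16, [0x10]), (1, [1])] = true := by decide +kernel

end Cfsg.Agent.Co3C
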