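import Cfsg.Agent.Mult.Slices
import Cfsg.Agent.Co3C.Cert

set_option autoImplicit false
set_option Elab.async false
set_option maxRecDepth 100000
set_option linter.all false

namespace Cfsg.Agent.Co3C
open Cfsg.Agent.CGT

open Cfsg.Agent.Mult

noncomputable def u5_D : PC := ⟨5, 3, 3, 24,
  [[0, 0x48, 0x40], [0, 0, 0x40], [0, 0, 0]],
  [7, 0, 0],
  [(3, 1, 3), (3, 8, 0x13), (3, 0x40, 0x40)], 11, 0x1010002020100020000⟩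
noncomputable def u5_ds : List (List ℕ) := [[2, 10, 0, 12, 3, 8, 3, 8, 2, 4, 6, 2, 6, 4, 3, 6, 10, 0, 3, 6], [12, 10, 6, 2, 12, 8, 6, 3, 12, 3, 4, 2, 0, 4, 6, 0, 2, 0, 4, 2, 4, 0], [0, 3, 8, 3, 4, 10, 12, 3, 6, 12, 0, 4, 6, 12, 0, 6, 4, 6, 0, 12, 6, 10], [4, 6, 3, 12, 2, 4, 2, 8, 6, 8, 6, 3, 6, 8, 10, 0, 4, 12, 3, 6, 8, 12, 2]]
noncomputable def u5_c : Mult.Cert := ⟨118, 21, [[], [], [1]],
  [],
  [[0xf, 0, 0x177], [0, 0x277, 0x96], [0, 0, 0x9c4]]⟩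

end Cfsg.Agent.Co3C
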