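import Cfsg.Agent.Mult.Slices
import Cfsg.Agent.Co3C.Mul5D

set_option autoImplicit false
set_option Elab.async false
set_option maxRecDepth 100000
set_option linter.all false

namespace Cfsg.Agent.Co3C
open Cfsg.Agent.CGT

open Cfsg.Agent.Mult

set_option Elab.async false
theorem u5_all : allB u5_D u5_c [.assoc 0x20 8 1, .fus 3 [2, 0] [0, 2], .fus 3 [2, 1] [1, 2], .fus 3 [0, 0, 0, 0, 0] [], .fus 3 [1, 1, 1, 1, 1] []] 9 m_ts u5_ds [5, 4, 3, 2, 1, 0, 7] [(0, [0x40, 8]), (1, [1])] = true := by decide +kernel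

end Cfsg.Agent.Co3C
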